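import Mathlib
import Cfsg.Agent.S1470
import Cfsg.Agent.S1471

/-!
BG Appendix C (S1472), field part (helper68): transfer of Lemmas C.1 / C.2 (S1470, S1471) from
`GaloisField p q` to an arbitrary field with `p ^ q` elements, with the norm written as the
power map `x ↦ x ^ ((p ^ q - 1) / (p - 1))`.
-/

set_option autoImplicit false

namespace Cfsg.Agent.Lib.Helper68.AppC

/-- In `GaloisField p q` the norm to the prime field is the `(p^q-1)/(p-1)`-th power map. -/
theorem norm_eq_one_iff (p q : ℕ) [Fact p.Prime] (hq : q ≠ 0) (a : GaloisField p q) :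
    Algebra.norm (ZMod p) a = 1 ↔ a ^ ((p ^ q - 1) / (p - 1)) = 1 := by
  have h := FiniteField.algebraMap_norm_eq_pow (K := ZMod p) (K' := GaloisField p q) (x := a)
  rw [GaloisField.card p q hq, Nat.card_zmod] at h
  constructor
  · intro h1
    rw [← h, h1, map_one]
  · intro h1
    rw [h1] at h
    exact (algebraMap (ZMod p) (GaloisField p q)).injective (by rw [h, map_one])

/-- The field part of BG Appendix C for an arbitrary field `F` with `p ^ q` elements: if the set
`E = {a | a^n = 1 ∧ (2 - a)^n = 1}` (`n = (p^q-1)/(p-1)`) is closed under inversion, then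
`p ≤ q`. -/
theorem le_of_inv_closed {F : Type*} [Field F] [Fintype F] (p q : ℕ) [Fact p.Prime]
    [Fact q.Prime] (hp : p ≠ 2) (hq : q ≠ 2)
    (hA : Nat.Coprime ((p ^ q - 1) / (p - 1)) (p - 1)) (hF : Fintype.card F = p ^ q)
    (hinv : ∀ a : F, a ^ ((p ^ q - 1) / (p - 1)) = 1 → (2 - a) ^ ((p ^ q - 1) / (p - 1)) = 1 →
      (2 - a⁻¹) ^ ((p ^ q - 1) / (p - 1)) = 1) : p ≤ q := by
  have hq0 : q ≠ 0 := (Fact.out : q.Prime).ne_zero
  letI : Fintype (GaloisField p q) := Fintype.ofFinite _
  have hcard : Fintype.card F = Fintype.card (GaloisField p q) := by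
    rw [hF, ← Nat.card_eq_fintype_card, GaloisField.card p q hq0]
  let e : F ≃+* GaloisField p q := FiniteField.ringEquivOfCardEq hcard
  refine Cfsg.Agent.S1470.result p q hp hq hA ?_ (Cfsg.Agent.S1471.result p q hp hq hA)
  rintro a ⟨h1, h2⟩
  rw [norm_eq_one_iff p q hq0] at h1 h2
  show Algebra.norm (ZMod p) a⁻¹ = 1 ∧ Algebra.norm (ZMod p) (2 - a⁻¹) = 1
  rw [norm_eq_one_iff p q hq0, norm_eq_one_iff p q hq0]
  refine ⟨by rw [inv_pow, h1, inv_one], ?_⟩
  have h3 := hinv (e.symm a) (by rw [← map_pow, h1, map_one])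
    (by
      have : (2 : F) - e.symm a = e.symm (2 - a) := by
        rw [map_sub, map_ofNat]
      rw [this, ← map_pow, h2, map_one])
  have h4 := congrArg e h3
  rw [map_pow, map_sub, map_ofNat, map_inv₀, RingEquiv.apply_symm_apply, map_one] at h4
  exact h4

/-- `p = 2` is trivial, and `q = 2` with `p` odd contradicts the coprimality hypothesis. -/
theorem le_of_two (p q : ℕ) [Fact p.Prime] [Fact q.Prime]
    (hA : Nat.Coprime ((p ^ q - 1) / (p - 1)) (p - 1)) (h : p = 2 ∨ q = 2) : p ≤ q := by
  have hpp : p.Prime := Fact.out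
  have hqp : q.Prime := Fact.out
  rcases h with h | h
  · rw [h]; exact hqp.two_le
  · by_cases hp2 : p = 2
    · rw [hp2]; exact hqp.two_le
    · exfalso
      subst h
      have hp3 : 3 ≤ p := by
        have := hpp.two_le
        omega
      have h1 : (p ^ 2 - 1) / (p - 1) = p + 1 := by
        have : p ^ 2 - 1 = (p + 1) * (p - 1) := by
          obtain ⟨k, rfl⟩ : ∃ k, p = k + 1 := ⟨p - 1, by omega⟩
          simp only [Nat.add_sub_cancel]
          ring_nf
          omega
        rw [this, Nat.mul_div_cancel _ (by omega)]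
      rw [h1] at hA
      have hodd : Odd p := hpp.odd_of_ne_two hp2
      obtain ⟨k, rfl⟩ := hodd
      have h2 : 2 ∣ Nat.gcd (2 * k + 1 + 1) (2 * k + 1 - 1) :=
        Nat.dvd_gcd (by omega) (by omega)
      rw [Nat.Coprime] at hA
      rw [hA] at h2
      omega

end Cfsg.Agent.Lib.Helper68.AppC
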